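import Cfsg.Agent.H4.SLConj
import Cfsg.Agent.H5.GLCard

/-! Counting nilpotent matrices through the Fitting decomposition. -/

set_option autoImplicit false

namespace Cfsg.Agent.H4

open Module

variable {F : Type*} [Field F]

theorem fit_block_diag {A B A' B' : Type*} [AddCommGroup A] [Module F A] [AddCommGroup B]
    [Module F B] [AddCommGroup A'] [Module F A'] [AddCommGroup B'] [Module F B']
    (h : (A × B) →ₗ[F] (A' × B')) {N : End F A} {N' : End F A'} (hN : IsNilpotent N)
    (hN' : IsNilpotent N') (D : B ≃ₗ[F] B) (D' : B' ≃ₗ[F] B')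
    (hh : ∀ v, h ((N.prodMap (D : End F B) : End F (A × B)) v) =
      (N'.prodMap (D' : End F B') : End F (A' × B')) (h v)) :
    (∀ x, (h (x, 0)).2 = 0) ∧ ∀ y, (h (0, y)).1 = 0 := by
  obtain ⟨a, ha⟩ := hN
  obtain ⟨b, hb⟩ := hN'
  have key : ∀ m x y, h ((N ^ m) x, (D ^ m) y) = ((N' ^ m) (h (x, y)).1, (D' ^ m) (h (x, y)).2) := by
    intro m
    induction m with
    | zero => intro x y; simp
    | succ m ih =>
      intro x y
      have := hh ((N ^ m) x, (D ^ m) y)
      rw [ih] at this
      simpa [pow_succ'] using this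
  constructor
  · intro x
    have := congrArg Prod.snd (key a x 0)
    rw [ha, LinearMap.zero_apply, map_zero, Prod.mk_zero_zero, map_zero] at this
    exact (map_eq_zero_iff _ (D' ^ a).injective).1 this.symm
  · intro y
    have := congrArg Prod.fst (key b 0 ((D ^ b).symm y))
    rwa [hb, map_zero, LinearEquiv.apply_symm_apply] at this

/-- The data of a Fitting decomposition. -/
abbrev FitY (F : Type*) [Field F] (n j k : ℕ) :=
  ((Fin n → F) ≃ₗ[F] ((Fin j → F) × (Fin k → F))) × {N : End F (Fin j → F) // IsNilpotent N} ×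
    ((Fin k → F) ≃ₗ[F] (Fin k → F))

/-- The endomorphism with the given Fitting data. -/
noncomputable def fitPhi {n j k : ℕ} (y : FitY F n j k) : End F (Fin n → F) :=
  y.1.symm.conj (y.2.1.1.prodMap (y.2.2 : End F (Fin k → F)))

theorem fitPhi_eq_iff {n j k : ℕ} (y : FitY F n j k) (T : End F (Fin n → F)) :
    fitPhi y = T ↔ ∀ v, y.1 (T v) = (y.2.1.1 (y.1 v).1, y.2.2 (y.1 v).2) := by
  constructor
  · rintro rfl v
    simp [fitPhi, LinearEquiv.conj_apply, Prod.map]
  · intro h
    refine LinearMap.ext fun v => y.1.injective ?_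
    rw [h]
    simp [fitPhi, LinearEquiv.conj_apply, Prod.map]

theorem fit_card_fiber {n j k : ℕ} (y : FitY F n j k) :
    Nat.card {y' : FitY F n j k // fitPhi y' = fitPhi y} =
      Nat.card ((Fin j → F) ≃ₗ[F] (Fin j → F)) * Nat.card ((Fin k → F) ≃ₗ[F] (Fin k → F)) := by
  obtain ⟨e, ⟨N, hN⟩, D⟩ := y
  have h0 := (fitPhi_eq_iff (e, ⟨N, hN⟩, D) _).1 rfl
  rw [← Nat.card_prod]
  symm
  refine Nat.card_eq_of_bijective (fun x => ⟨(e.trans (x.1.prodCongr x.2),
    ⟨x.1.conj N, hN.map (x.1.conjAlgEquiv F)⟩, x.2.symm.trans (D.trans x.2)), ?_⟩) ⟨?_, ?_⟩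
  · rw [fitPhi_eq_iff]
    intro v
    simp [h0, LinearEquiv.conj_apply]
  · rintro ⟨a, d⟩ ⟨a', d'⟩ h
    have h1 := congrArg (fun x => x.1.1) h
    simp only at h1
    ext1
    · refine LinearEquiv.ext fun x => ?_
      simpa using congrArg Prod.fst (LinearEquiv.congr_fun h1 (e.symm (x, 0)))
    · refine LinearEquiv.ext fun x => ?_
      simpa using congrArg Prod.snd (LinearEquiv.congr_fun h1 (e.symm (0, x)))
  · rintro ⟨⟨e', ⟨N', hN'⟩, D'⟩, h⟩
    have h1 := (fitPhi_eq_iff _ _).1 h
    simp only at h0 h1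
    have h2 : ∀ v, e' (e.symm ((N.prodMap (D : End F _) : End F _) v)) =
        (N'.prodMap (D' : End F _) : End F _) (e' (e.symm v)) := by
      intro v
      obtain ⟨v, rfl⟩ := e.surjective v
      simp [Prod.map, ← h0, h1]
    obtain ⟨h3, h4⟩ := fit_block_diag (e.symm.trans e').toLinearMap hN hN' D D' h2
    simp only [LinearEquiv.coe_coe, LinearEquiv.trans_apply] at h3 h4
    let a := LinearMap.fst F _ _ ∘ₗ (e.symm.trans e').toLinearMap ∘ₗ LinearMap.inl F _ _
    let d := LinearMap.snd F _ _ ∘ₗ (e.symm.trans e').toLinearMap ∘ₗ LinearMap.inr F _ _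
    have h5 : ∀ x y, e' (e.symm (x, y)) = (a x, d y) := by
      intro x y
      rw [show (x, y) = (x, 0) + (0, y) by simp, map_add, map_add]
      ext1 <;> simp [a, d, h3, h4]
    have ha : Function.Injective a := by
      rw [injective_iff_map_eq_zero]
      intro x hx
      have := h5 x 0
      rw [hx, map_zero, Prod.mk_zero_zero] at this
      simpa using this
    have hd : Function.Injective d := by
      rw [injective_iff_map_eq_zero]
      intro x hx
      have := h5 0 x
      rw [hx, map_zero, Prod.mk_zero_zero] at this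
      simpa using this
    refine ⟨(LinearEquiv.ofInjectiveEndo a ha, LinearEquiv.ofInjectiveEndo d hd), Subtype.ext ?_⟩
    have h6 : ∀ x y, (a (N x), d (D y)) = (N' (a x), D' (d y)) := by
      intro x y
      have := h2 (x, y)
      simpa [h5] using this
    refine Prod.ext (LinearEquiv.ext fun v => ?_) (Prod.ext (Subtype.ext (LinearMap.ext fun v => ?_))
      (LinearEquiv.ext fun v => ?_))
    · obtain ⟨⟨x, y⟩, rfl⟩ := e.symm.surjective v
      simp [h5]
    · obtain ⟨v, rfl⟩ := (LinearEquiv.ofInjectiveEndo a ha).surjective v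
      rw [LinearEquiv.conj_apply_apply, LinearEquiv.symm_apply_apply]
      exact congrArg Prod.fst (h6 v 0)
    · obtain ⟨v, rfl⟩ := (LinearEquiv.ofInjectiveEndo d hd).surjective v
      rw [LinearEquiv.trans_apply, LinearEquiv.symm_apply_apply]
      exact congrArg Prod.snd (h6 0 v)

theorem finrank_fitPhi {n j k : ℕ} (y : FitY F n j k) :
    finrank F (⨆ m, LinearMap.ker (fitPhi y ^ m) : Submodule F _) = j := by
  obtain ⟨e, ⟨N, a, ha⟩, D⟩ := y
  have h0 := (fitPhi_eq_iff (e, ⟨N, a, ha⟩, D) _).1 rfl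
  simp only at h0
  set T := fitPhi (e, ⟨N, a, ha⟩, D)
  have key : ∀ m v, e ((T ^ m) v) = ((N ^ m) (e v).1, (D ^ m) (e v).2) := by
    intro m
    induction m with
    | zero => intro v; simp
    | succ m ih => intro v; simp [pow_succ', h0, ih]
  have h1 : (⨆ m, LinearMap.ker (T ^ m) : Submodule F _) =
      LinearMap.range (e.symm.toLinearMap ∘ₗ LinearMap.inl F _ _) := by
    refine le_antisymm (iSup_le fun m v hv => ⟨(e v).1, e.injective ?_⟩)
      (le_iSup_of_le a ?_)
    · have := congrArg Prod.snd (key m v)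
      rw [LinearMap.mem_ker.1 hv, map_zero] at this
      ext1
      · simp
      · simpa using ((map_eq_zero_iff _ (D ^ m).injective).1 this.symm).symm
    · rintro _ ⟨x, rfl⟩
      apply e.injective
      simp [key, ha]
  rw [h1, LinearMap.finrank_range_of_inj (f := e.symm.toLinearMap ∘ₗ LinearMap.inl F _ _)
    (e.symm.injective.comp LinearMap.inl_injective)]
  simp

theorem exists_fitPhi {n j k : ℕ} (hjk : j + k = n) (T : End F (Fin n → F))
    (hT : finrank F (⨆ m, LinearMap.ker (T ^ m) : Submodule F _) = j) :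
    ∃ y : FitY F n j k, fitPhi y = T := by
  obtain ⟨m0, hm⟩ := Filter.eventually_atTop.1 (T.eventually_isCompl_ker_pow_range_pow.and
    T.eventually_iSup_ker_pow_eq)
  obtain ⟨hc, h1⟩ := hm m0 le_rfl
  generalize m0 = m at hc h1
  rw [h1] at hT
  have h2 : finrank F (LinearMap.range (T ^ m)) = k := by
    have := Submodule.finrank_add_eq_of_isCompl hc
    simp at this; omega
  have hK : ∀ v ∈ LinearMap.ker (T ^ m), T v ∈ LinearMap.ker (T ^ m) := fun v hv => by
    rw [LinearMap.mem_ker] at hv ⊢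
    rw [← Module.End.mul_apply, ← pow_succ, pow_succ', Module.End.mul_apply, hv, map_zero]
  have hI : ∀ v ∈ LinearMap.range (T ^ m), T v ∈ LinearMap.range (T ^ m) := by
    rintro _ ⟨v, rfl⟩
    exact ⟨T v, by rw [← Module.End.mul_apply, ← pow_succ, pow_succ', Module.End.mul_apply]⟩
  have hinj : Function.Injective (T.restrict hI) := by
    rw [injective_iff_map_eq_zero]
    rintro ⟨v, hv⟩ h
    have h3 : T v = 0 := congrArg Subtype.val h
    have h4 : v ∈ LinearMap.ker (T ^ m) := h1 ▸ (le_iSup (fun m => LinearMap.ker (T ^ m)) 1) (by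
      simpa using h3)
    exact Subtype.ext ((Submodule.disjoint_def.1 hc.disjoint) v h4 hv)
  let a : LinearMap.ker (T ^ m) ≃ₗ[F] (Fin j → F) := LinearEquiv.ofFinrankEq _ _ (by simpa using hT)
  let d : LinearMap.range (T ^ m) ≃ₗ[F] (Fin k → F) := LinearEquiv.ofFinrankEq _ _ (by simpa using h2)
  have hnil : IsNilpotent (T.restrict hK) := ⟨m, by
    refine LinearMap.ext fun v => Subtype.ext ?_
    rw [Module.End.pow_restrict]
    exact v.2⟩
  refine ⟨((Submodule.prodEquivOfIsCompl _ _ hc).symm.trans (a.prodCongr d),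
    ⟨a.conj (T.restrict hK), hnil.map (a.conjAlgEquiv F)⟩,
    d.symm.trans ((LinearEquiv.ofInjectiveEndo _ hinj).trans d)), (fitPhi_eq_iff _ _).2 fun v => ?_⟩
  obtain ⟨⟨x, y⟩, rfl⟩ := (Submodule.prodEquivOfIsCompl _ _ hc).surjective v
  have : T (Submodule.prodEquivOfIsCompl _ _ hc (x, y)) =
      Submodule.prodEquivOfIsCompl _ _ hc (T.restrict hK x, T.restrict hI y) := by simp
  rw [this]
  simp [LinearEquiv.conj_apply, -Submodule.coe_prodEquivOfIsCompl', -Submodule.coe_prodEquivOfIsCompl]

variable [Fintype F]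

theorem card_linearEquiv_eq {V W : Type*} [AddCommGroup V] [Module F V] [AddCommGroup W]
    [Module F W] [Module.Finite F V] [Module.Finite F W] {n : ℕ} (hV : finrank F V = n)
    (hW : finrank F W = n) : Nat.card (V ≃ₗ[F] W) = Nat.card (GL (Fin n) F) := by
  let a : V ≃ₗ[F] (Fin n → F) := LinearEquiv.ofFinrankEq _ _ (by simpa using hV)
  let b : W ≃ₗ[F] (Fin n → F) := LinearEquiv.ofFinrankEq _ _ (by simpa using hW)
  rw [Nat.card_congr (Matrix.GeneralLinearGroup.toLin (n := Fin n) (R := F)).toEquiv,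
    Nat.card_congr (LinearMap.GeneralLinearGroup.generalLinearEquiv F (Fin n → F)).toEquiv]
  exact Nat.card_congr ⟨fun e => a.symm.trans (e.trans b), fun e => a.trans (e.trans b.symm),
    fun e => by ext; simp, fun e => by ext; simp⟩

/-- The number of nilpotent endomorphisms of `F^j`. -/
noncomputable def nilNum (F : Type*) [Field F] (j : ℕ) : ℕ :=
  Nat.card {N : End F (Fin j → F) // IsNilpotent N}

theorem card_fit_piece {n j : ℕ} (hj : j ≤ n) :
    Nat.card {T : End F (Fin n → F) //
      finrank F (⨆ m, LinearMap.ker (T ^ m) : Submodule F _) = j} * Nat.card (GL (Fin j) F) =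
      Nat.card (GL (Fin n) F) * nilNum F j := by
  classical
  obtain ⟨k, rfl⟩ := Nat.exists_eq_add_of_le hj
  have hfin : ∀ (A B : Type _) [AddCommGroup A] [Module F A] [AddCommGroup B] [Module F B]
      [Finite A] [Finite B], Finite (A ≃ₗ[F] B) := fun A B _ _ _ _ _ _ =>
    Finite.of_injective _ DFunLike.coe_injective
  have hfin' : ∀ m, Finite (End F (Fin m → F)) := fun m =>
    Finite.of_injective _ DFunLike.coe_injective
  let ψ : FitY F (j + k) j k → {T : End F (Fin (j + k) → F) //
      finrank F (⨆ m, LinearMap.ker (T ^ m) : Submodule F _) = j} :=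
    fun y => ⟨fitPhi y, finrank_fitPhi y⟩
  have h1 := Nat.card_congr (Equiv.sigmaFiberEquiv ψ)
  have := Fintype.ofFinite {T : End F (Fin (j + k) → F) //
      finrank F (⨆ m, LinearMap.ker (T ^ m) : Submodule F _) = j}
  rw [Nat.card_sigma, Finset.sum_congr rfl (g := fun _ =>
    Nat.card (GL (Fin j) F) * Nat.card (GL (Fin k) F))] at h1
  · rw [Finset.sum_const, Finset.card_univ, smul_eq_mul, Nat.card_prod, Nat.card_prod,
      card_linearEquiv_eq (n := j + k) (by simp) (by simp),
      card_linearEquiv_eq (n := k) (by simp) (by simp), ← mul_assoc, ← mul_assoc,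
      ← Nat.card_eq_fintype_card] at h1
    exact Nat.eq_of_mul_eq_mul_right Nat.card_pos h1
  · rintro ⟨T, hT⟩ -
    obtain ⟨y, rfl⟩ := exists_fitPhi rfl T hT
    rw [← card_linearEquiv_eq (V := Fin j → F) (W := Fin j → F) (n := j) (by simp) (by simp),
      ← card_linearEquiv_eq (V := Fin k → F) (W := Fin k → F) (n := k) (by simp) (by simp),
      ← fit_card_fiber y]
    exact Nat.card_congr (Equiv.subtypeEquivRight fun y' => Subtype.ext_iff)

theorem sum_nilNum (n : ℕ) : (Fintype.card F : ℚ) ^ (n * n) / Nat.card (GL (Fin n) F) =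
    ∑ j ∈ Finset.range (n + 1), (nilNum F j : ℚ) / Nat.card (GL (Fin j) F) := by
  classical
  have hfin' : Finite (End F (Fin n → F)) := Finite.of_injective _ DFunLike.coe_injective
  have := Fintype.ofFinite (End F (Fin n → F))
  have h1 : Fintype.card (End F (Fin n → F)) = Fintype.card F ^ (n * n) := by
    rw [Module.card_eq_pow_finrank (K := F), Module.finrank_linearMap]
    simp
  have h2 := Finset.card_eq_sum_card_fiberwise (s := (Finset.univ : Finset (End F (Fin n → F))))
    (t := Finset.range (n + 1))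
    (f := fun T => finrank F (⨆ m, LinearMap.ker (T ^ m) : Submodule F _)) fun T _ => by
      have := Submodule.finrank_le (⨆ m, LinearMap.ker (T ^ m) : Submodule F _)
      simp at this ⊢; omega
  rw [Finset.card_univ, h1] at h2
  have hpos : ∀ m, (Nat.card (GL (Fin m) F) : ℚ) ≠ 0 := fun m => by exact_mod_cast Nat.card_pos.ne'
  rw [← Nat.cast_pow, h2, Nat.cast_sum, Finset.sum_div]
  refine Finset.sum_congr rfl fun j hj => ?_
  rw [div_eq_div_iff (hpos _) (hpos _), mul_comm (nilNum F j : ℚ)]
  have h3 := card_fit_piece (F := F) (Nat.lt_succ_iff.1 (Finset.mem_range.1 hj))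
  rw [Nat.card_eq_fintype_card, Fintype.card_subtype] at h3
  exact_mod_cast h3

theorem nilNum_eq (n : ℕ) : nilNum F n = Fintype.card F ^ (n * (n - 1)) := by
  have hpos : ∀ m, (Nat.card (GL (Fin m) F) : ℚ) ≠ 0 := fun m => by exact_mod_cast Nat.card_pos.ne'
  rcases n with _ | n
  · have := sum_nilNum (F := F) 0
    rw [zero_add, Finset.sum_range_one, div_left_inj' (hpos 0)] at this
    exact_mod_cast this.symm
  · have h1 := sum_nilNum (F := F) (n + 1)
    rw [Finset.sum_range_succ, ← sum_nilNum] at h1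
    have h2 : (Nat.card (GL (Fin (n + 1)) F) : ℚ) =
        Nat.card (GL (Fin n) F) * (Fintype.card F ^ n * (Fintype.card F ^ (n + 1) - 1)) := by
      rw [H5.card_GL_prod, H5.card_GL_prod, Finset.prod_range_succ, Finset.prod_range_succ]
      push_cast [Nat.cast_sub (Nat.one_le_pow (n + 1) _ (Fintype.card_pos (α := F)))]
      ring
    have h3 := hpos (n + 1)
    rw [← sub_eq_iff_eq_add', eq_div_iff h3, sub_mul, div_mul_cancel₀ _ h3, h2, ← mul_assoc,
      div_mul_cancel₀ _ (hpos n)] at h1
    apply Nat.cast_injective (R := ℚ)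
    rw [← h1, Nat.add_sub_cancel]
    push_cast
    ring

end Cfsg.Agent.H4
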